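import Cfsg.Agent.Comp.J3.Main
import Cfsg.Agent.Comp.J3.MatF

set_option autoImplicit false
set_option maxRecDepth 100000

namespace Cfsg.Agent.Comp.J3
open Cfsg.Agent.Comp

def uI : List Nat := [nat_lit 1, nat_lit 32, nat_lit 1024, nat_lit 32768, nat_lit 1048576, nat_lit 33554432, nat_lit 1073741824, nat_lit 34359738368, nat_lit 1099511627776, nat_lit 35184372088832, nat_lit 1125899906842624, nat_lit 36028797018963968, nat_lit 1152921504606846976, nat_lit 36893488147419103232, nat_lit 1180591620717411303424, nat_lit 37778931862957161709568, nat_lit 1208925819614629174706176, nat_lit 38685626227668133590597632]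

def uC : List Nat := [nat_lit 1, nat_lit 32, nat_lit 1024, nat_lit 32768, nat_lit 1048576, nat_lit 33554432, nat_lit 1073741824, nat_lit 34359738368, nat_lit 1099511627776]

def uO : List Nat := [nat_lit 35184372088832, nat_lit 1125899906842624, nat_lit 36028797018963968, nat_lit 1152921504606846976, nat_lit 36893488147419103232, nat_lit 1180591620717411303424, nat_lit 37778931862957161709568, nat_lit 1208925819614629174706176, nat_lit 38685626227668133590597632, nat_lit 35184372088833, nat_lit 1125899906842656, nat_lit 36028797018964992, nat_lit 1152921504606879744, nat_lit 36893488147420151808, nat_lit 1180591620717444857856, nat_lit 37778931862958235451392, nat_lit 1208925819614663534444544, nat_lit 38685626227669233102225408]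

def uen : Fin 9 → ℕ := Fin.val

def ubs : List (Fin 9 → K4) := (List.ofFn fun j => Pi.single j 1) ++ List.ofFn fun j => Pi.single j w4

theorem ums : MS (nat_lit 2) (nat_lit 5) (nat_lit 31) (nat_lit 9) uI uC uO ubs uen (w4 : K4) :=
  ⟨by decide +kernel, by decide +kernel, by decide +kernel, by decide +kernel, by decide +kernel⟩

def U : List (List Nat) :=
  [[nat_lit 38959524610709426045953, nat_lit 38723443205975927183901697, nat_lit 38723443205941843364676641, nat_lit 1217522264695661134881, nat_lit 1208927009691965687103521, nat_lit 39894553200240585650208801, nat_lit 38685626264859114401169440, nat_lit 38686843712778097932664833, nat_lit 1247885380254100186234913, nat_lit 39895770722503014607749152, nat_lit 38724623833591357794975745, nat_lit 1190112486491193344, nat_lit 39894588940806094591099936, nat_lit 38724622680703971333538848, nat_lit 1218639157403215495169, nat_lit 36929553228321784865, nat_lit 1218638066653355573248, nat_lit 39933549653240106222355488],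
   [nat_lit 1210107600186783156962305, nat_lit 38686843713904033307558944, nat_lit 39932369025555407387525153, nat_lit 39933512759751958803251200, nat_lit 38723405160658125638860801, nat_lit 39932369026682406804915200, nat_lit 38997605923258563035169, nat_lit 1210107600221933170327584, nat_lit 1181781733238295789568, nat_lit 38724585751187026929026048, nat_lit 1246704787507482901610528, nat_lit 38685626228830352815718400, nat_lit 38685627416654754567193601, nat_lit 1210143305885678869413920, nat_lit 38083565483897946144, nat_lit 39895770722503014608831488, nat_lit 39933549654366005055489025, nat_lit 39932367909823748677600289],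
   [nat_lit 39894553200205402318341121, nat_lit 38686843713904033307558912, nat_lit 39932332132103543884644384, nat_lit 39933512759751958803283968, nat_lit 38959560639506478530560, nat_lit 39932332133228344247320577, nat_lit 38997605923257489293345, nat_lit 1210107600221967530065952, nat_lit 1218675186201308201985, nat_lit 37815861416219843264512, nat_lit 1246704788633382808453152, nat_lit 1180592782936635375617, nat_lit 38685626263733249960346625, nat_lit 39894588977925608217510944, nat_lit 38685664275204820468531233, nat_lit 39933549654365971770541056, nat_lit 38724623834751375880782849, nat_lit 39933548465415669070988320],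
   [nat_lit 1218638030370512045089, nat_lit 36029931965121569, nat_lit 39933549618302024739226625, nat_lit 1247885379162320605806593, nat_lit 38724585787215825021698080, nat_lit 39932369061619388777496577, nat_lit 1218674060301401325601, nat_lit 38686808008239153702502432, nat_lit 1210143340753426003788832, nat_lit 38960713595060512391168, nat_lit 39932367873794951625049088, nat_lit 38685626264859149868236832, nat_lit 36028832485999617, nat_lit 39894552084473744682124289, nat_lit 38685664310107717581702145, nat_lit 39933549654365970696799232, nat_lit 38724623834717256660583424, nat_lit 38723405160657025053492224],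
   [nat_lit 38724586940103243694342176, nat_lit 38960712435111144981537, nat_lit 37780085945581480968193, nat_lit 38724585788341689462555681, nat_lit 39894552047282763839078432, nat_lit 38685627381751857455071264, nat_lit 1190111387013120001, nat_lit 38685663121157414915671073, nat_lit 1210144457681282496757792, nat_lit 1246705941554888488027136, nat_lit 39895770686474217588818944, nat_lit 1208926973662034762170401, nat_lit 38724622644641056201638945, nat_lit 39932332133194258312069120, nat_lit 1247885343134587631468577, nat_lit 38996454126518917956641, nat_lit 1210106448426327396581376, nat_lit 39895732640064598849912833],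
   [nat_lit 39933512760842674305499137, nat_lit 1218638065588169113601, nat_lit 39895732638939799527358465, nat_lit 38723405160692209425580033, nat_lit 1247885344224203655643169, nat_lit 39932367909823749752389665, nat_lit 1218638066687681790976, nat_lit 38686843748842114791800864, nat_lit 1210107600221933202866177, nat_lit 38686844902889519304442912, nat_lit 1210143304723494039748609, nat_lit 37778931864091066630145, nat_lit 39933548465381585249632289, nat_lit 1247923389543175612792864, nat_lit 39895733827854916748575777, nat_lit 39895732674967461602295809, nat_lit 1246705941590071787389953, nat_lit 39932331015174551339303937],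
   [nat_lit 35184372088832, nat_lit 1125899906842624, nat_lit 36028797018963968, nat_lit 1152921504606846976, nat_lit 36893488147419103232, nat_lit 1180591620717411303424, nat_lit 37778931862957161709568, nat_lit 1208925819614629174706176, nat_lit 38685626227668133590597632, nat_lit 35184372088833, nat_lit 1125899906842656, nat_lit 36028797018964992, nat_lit 1152921504606879744, nat_lit 36893488147420151808, nat_lit 1180591620717444857856, nat_lit 37778931862958235451392, nat_lit 1208925819614663534444544, nat_lit 38685626227669233102225408]]

theorem Uok : MOK (nat_lit 2) (nat_lit 5) ubs uen U := ums.mok (by decide +kernel)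

/-- the matrices of the letters -/
def Um : ℕ → Matrix (Fin 9) (Fin 9) (K4) := mat (nat_lit 5) ubs uen U

theorem satUn : Sat Um RZ := ums.sat Uok (by decide +kernel)

def EU : List (List Nat × List Nat) :=
  [([1], [3, 0, 4, 5, 3, 5, 4, 5, 3, 5, 0, 4, 3, 4]),
   ([2], [4, 3, 0, 4, 5, 3, 5, 4, 5, 3, 5, 4, 0, 3])]

theorem eqsU : ∀ e ∈ EU, ev Um e.1 = ev Um e.2 := ums.eqs Uok (by decide +kernel)

theorem unz : Um 6 = w4 • (1 : Matrix (Fin 9) (Fin 9) K4) := by decide +kernel

theorem unne : Um 0 * Um 3 ≠ Um 3 * Um 0 ∧ Um 6 ≠ 1 := by decide +kernel

theorem unform : ∀ x < 7, ∀ i j, ∑ l, Um x l i * Um x l j ^ 2 = if i = j then 1 else 0 := by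
  decide +kernel

attribute [irreducible] Um

theorem undet : ∀ x < 7, (Um x).det = 1 :=
  det_letters (Z := [6]) (by decide +kernel) satUn eqsU (by
    intro x hx
    rw [List.mem_singleton.mp hx, unz, Matrix.det_smul, Matrix.det_one, Fintype.card_fin]
    decide +kernel) (by decide +kernel)

/-- the map from the unitary group to matrices -/
def rhoU : SU 9 K4 2 →* Matrix (Fin 9) (Fin 9) K4 := (slToMat 9 K4).comp (SU 9 K4 2).subtype

theorem rhoU_inj : Function.Injective rhoU := fun _ _ e => Subtype.ext (Subtype.ext e)

theorem unmem : ∀ x < 7, ∃ g, rhoU g = Um x := fun x hx =>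
  have : CharP K4 2 := (CharP.charP_iff_prime_eq_zero Nat.prime_two).mpr (by decide +kernel)
  ⟨⟨⟨Um x, undet x hx⟩, mem_SU 2 (k := 1) rfl _ (unform x hx)⟩, rfl⟩

theorem unitary : ∃ H : Subgroup (SU 9 K4 2), Nat.card (Subgroup.center H) = 3 ∧
    Nonempty (G ≃* H ⧸ Subgroup.center H) := by
  have := simple
  obtain ⟨H, hH⟩ : ∃ H, H = gen (liftS rhoU Um) 7 := ⟨_, rfl⟩
  have inj : Function.Injective (rhoU.comp H.subtype) := rhoU_inj.comp Subtype.val_injective
  obtain ⟨t, ht⟩ : ∃ t, t = liftS H.subtype (liftS rhoU Um) := ⟨_, rfl⟩
  have v : ∀ x < 7, (rhoU.comp H.subtype) (t x) = Um x := fun x hx => by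
    have : H.subtype (t x) = liftS rhoU Um x := ht ▸ liftS_val ⟨⟨_, hH ▸ letter_mem_gen hx⟩, rfl⟩
    rw [MonoidHom.comp_apply, this, liftS_val (unmem x hx)]
  have hs : Sat t RZ := fun w hw => inj (by
    rw [map_ev, map_one, ← satUn w hw]
    exact ev_congr fun x hx => v x ((by decide +kernel : ∀ w ∈ RZ, ∀ x ∈ w, x < 7) w hw x hx))
  obtain ⟨h1, e, _⟩ := pres.central hR (t := t)
    (ht ▸ gen_liftS_top Subtype.val_injective (by rw [Subgroup.range_subtype, hH]))
    (Subgroup.mem_center_iff.mpr fun g => inj (by
      rw [map_mul, map_mul, v 6 (by norm_num), unz]; simp)) hs (by decide +kernel) (by decide +kernel)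
    ⟨t 0, t 3, fun e => unne.1 (by
      have := congrArg (rhoU.comp H.subtype) e
      rwa [map_mul, map_mul, v 0 (by norm_num), v 3 (by norm_num)] at this)⟩
  refine ⟨H, ?_, ⟨e⟩⟩
  rw [h1]
  refine card_zpowers_prime ?_ fun e => unne.2 ?_
  · simpa [pow_succ, mul_assoc] using hs [6, 6, 6] (by decide +kernel)
  · rw [← v 6 (by norm_num), e, map_one]

end Cfsg.Agent.Comp.J3
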